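import Mathlib

set_option autoImplicit false

/-! Principal ideal theorem of group theory: the transfer from a finite group `G`
to the abelianization of its commutator subgroup is trivial. -/

namespace Cfsg.Agent.PIT

universe u

variable {G : Type u} [Group G]

/-- Functions `φ : G → B` that are additive on right translation by the commutator subgroup. -/
def W (G : Type u) [Group G] (B : Type u) [AddCommGroup B] : Submodule ℤ (G → B) where
  carrier := {φ | ∀ g : G, ∀ h ∈ commutator G, φ (g * h) = φ g + φ h}
  add_mem' := by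
    intro a b ha hb g h hh
    simp only [Pi.add_apply, ha g h hh, hb g h hh]; abel
  zero_mem' := by intro g h _; simp
  smul_mem' := by
    intro c a ha g h hh
    simp only [Pi.smul_apply, ha g h hh, smul_add]

variable {B : Type u} [AddCommGroup B]

theorem W_one (φ : W G B) : φ.1 1 = 0 := by
  have := φ.2 1 1 (commutator G).one_mem
  simpa using this

/-- Translation operator. -/
def T (s : G) : Module.End ℤ (W G B) where
  toFun φ := ⟨fun x => φ.1 (x * s) - φ.1 s, by
    intro g h hh
    have hh' : s⁻¹ * h * s ∈ commutator G := by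
      simpa using Subgroup.Normal.conj_mem inferInstance h hh s⁻¹
    have e1 : g * h * s = g * s * (s⁻¹ * h * s) := by group
    have e2 : h * s = s * (s⁻¹ * h * s) := by group
    show φ.1 (g * h * s) - φ.1 s = (φ.1 (g * s) - φ.1 s) + (φ.1 (h * s) - φ.1 s)
    rw [e1, φ.2 (g * s) _ hh', e2, φ.2 s _ hh']; abel⟩
  map_add' a b := by
    apply Subtype.ext; funext x
    simp only [Submodule.coe_add, Pi.add_apply]; abel
  map_smul' c a := by
    apply Subtype.ext; funext x
    simp only [SetLike.val_smul, Pi.smul_apply, RingHom.id_apply, smul_sub]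

theorem T_apply (s : G) (φ : W G B) (x : G) : (T (B := B) s φ).1 x = φ.1 (x * s) - φ.1 s := rfl

/-- `T` as a monoid homomorphism. -/
def Thom (G : Type u) [Group G] (B : Type u) [AddCommGroup B] : G →* Module.End ℤ (W G B) where
  toFun := T
  map_one' := by
    apply LinearMap.ext; intro φ; apply Subtype.ext; funext x
    show (T (B := B) (1 : G) φ).1 x = φ.1 x
    rw [T_apply]; simp [W_one]
  map_mul' s t := by
    apply LinearMap.ext; intro φ; apply Subtype.ext; funext x
    show (T (B := B) (s * t) φ).1 x = (T (B := B) s (T (B := B) t φ)).1 x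
    simp only [T_apply, mul_assoc]; abel

theorem Thom_ker : commutator G ≤ (Thom G B).ker := by
  intro h hh
  rw [MonoidHom.mem_ker]
  apply LinearMap.ext; intro φ; apply Subtype.ext; funext x
  show φ.1 (x * h) - φ.1 h = φ.1 x
  rw [φ.2 x h hh]; abel

/-- The representation of `Abelianization G` on `W G B`. -/
def rho (G : Type u) [Group G] (B : Type u) [AddCommGroup B] :
    Abelianization G →* Module.End ℤ (W G B) :=
  QuotientGroup.lift (commutator G) (Thom G B) Thom_ker

theorem rho_of (s : G) : rho G B (Abelianization.of s) = T s := rfl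

/-- The ring acting. -/
abbrev R (G : Type u) [Group G] := MonoidAlgebra ℤ (Abelianization G)

noncomputable def rhoHat (G : Type u) [Group G] (B : Type u) [AddCommGroup B] :
    R G →ₐ[ℤ] Module.End ℤ (W G B) :=
  MonoidAlgebra.lift ℤ (Module.End ℤ (W G B)) (Abelianization G) (rho G B)

theorem rhoHat_single (q : Abelianization G) (n : ℤ) :
    rhoHat G B (MonoidAlgebra.single q n) = n • rho G B q :=
  MonoidAlgebra.lift_single _ _ _

/-- Augmentation. -/
noncomputable def aug (G : Type u) [Group G] : R G →ₐ[ℤ] ℤ :=
  MonoidAlgebra.lift ℤ ℤ (Abelianization G) 1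

theorem aug_single (q : Abelianization G) (n : ℤ) : aug G (MonoidAlgebra.single q n) = n := by
  simp [aug, MonoidAlgebra.lift_single]

section Rep

variable {ι : Type} [Fintype ι] (gen : ι → G)

/-- `c` expresses `x` in terms of `gen`. -/
def HasRep (x : G) (c : ι → R G) : Prop :=
  ∀ (B : Type u) [AddCommGroup B] (φ : W G B),
    φ.1 x = ∑ i, ((rhoHat G B (c i)) φ).1 (gen i)

/-- `x` has an expression with exponent sums `e`. -/
def Rep (x : G) (e : ι → ℤ) : Prop :=
  ∃ c : ι → R G, (∀ i, aug G (c i) = e i) ∧ HasRep gen x c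

theorem rep_one : Rep gen 1 0 :=
  ⟨0, fun i => by simp, fun B _ φ => by simp [W_one]⟩

theorem rep_mul {x s : G} {e f : ι → ℤ} (hx : Rep gen x e) (hs : Rep gen s f) :
    Rep gen (x * s) (e + f) := by
  obtain ⟨c, hc, hcx⟩ := hx
  obtain ⟨d, hd, hds⟩ := hs
  refine ⟨fun i => c i * MonoidAlgebra.single (Abelianization.of s) 1 + d i, fun i => ?_,
    fun B _ φ => ?_⟩
  · simp [aug_single, hc, hd]
  · have h1 := hcx B (T (B := B) s φ)
    rw [T_apply] at h1
    have h2 := hds B φ
    simp only [map_add, map_mul, rhoHat_single, one_smul, rho_of, LinearMap.add_apply,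
      Module.End.mul_apply, Submodule.coe_add, Pi.add_apply, Finset.sum_add_distrib]
    rw [← h1, ← h2]; abel

theorem rep_inv {x : G} {e : ι → ℤ} (hx : Rep gen x e) : Rep gen x⁻¹ (-e) := by
  obtain ⟨c, hc, hcx⟩ := hx
  refine ⟨fun i => -(c i * MonoidAlgebra.single (Abelianization.of x⁻¹) 1), fun i => ?_,
    fun B _ φ => ?_⟩
  · simp [aug_single, hc]
  · have h1 := hcx B (T (B := B) x⁻¹ φ)
    rw [T_apply, mul_inv_cancel, W_one, zero_sub] at h1
    simp only [map_neg, map_mul, rhoHat_single, one_smul, rho_of, LinearMap.neg_apply,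
      Module.End.mul_apply, NegMemClass.coe_neg, Pi.neg_apply, Finset.sum_neg_distrib]
    rw [← h1, neg_neg]

theorem rep_gen [DecidableEq ι] (j : ι) : Rep gen (gen j) (Pi.single j 1) := by
  refine ⟨fun i => if i = j then 1 else 0, fun i => ?_, fun B _ φ => ?_⟩
  · by_cases h : i = j
    · subst h; simp
    · simp [h]
  · rw [Finset.sum_eq_single j]
    · simp
    · intro b _ hb; simp [hb]
    · simp

theorem rep_exists [DecidableEq ι] (hgen : Subgroup.closure (Set.range gen) = ⊤) (x : G) :
    ∃ e, Rep gen x e := by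
  have hx : x ∈ Subgroup.closure (Set.range gen) := by rw [hgen]; trivial
  induction hx using Subgroup.closure_induction with
  | mem y hy => obtain ⟨j, rfl⟩ := hy; exact ⟨_, rep_gen gen j⟩
  | one => exact ⟨_, rep_one gen⟩
  | mul a b _ _ ha hb =>
    obtain ⟨e, he⟩ := ha; obtain ⟨f, hf⟩ := hb; exact ⟨_, rep_mul gen he hf⟩
  | inv a _ ha => obtain ⟨e, he⟩ := ha; exact ⟨_, rep_inv gen he⟩

theorem rep_pow [DecidableEq ι] (j : ι) (n : ℕ) :
    Rep gen (gen j ^ n) (Pi.single j (n : ℤ)) := by
  induction n with
  | zero => simpa using rep_one gen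
  | succ n ih =>
    have := rep_mul gen ih (rep_gen gen j)
    rw [← pow_succ, ← Pi.single_add] at this
    simpa using this

theorem rep_commutator [DecidableEq ι] (hgen : Subgroup.closure (Set.range gen) = ⊤) {h : G}
    (hh : h ∈ commutator G) : Rep gen h 0 := by
  rw [commutator_eq_closure] at hh
  induction hh using Subgroup.closure_induction with
  | mem y hy =>
    obtain ⟨a, b, rfl⟩ := hy
    obtain ⟨e, he⟩ := rep_exists gen hgen a
    obtain ⟨f, hf⟩ := rep_exists gen hgen b
    have := rep_mul gen (rep_mul gen (rep_mul gen he hf) (rep_inv gen he)) (rep_inv gen hf)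
    simpa [commutatorElement_def] using this
  | one => exact rep_one gen
  | mul a b _ _ ha hb => simpa using rep_mul gen ha hb
  | inv a _ ha => simpa using rep_inv gen ha

/-- Existence of an element of the group ring with augmentation `∏ d` annihilating everything. -/
theorem exists_annihilator [DecidableEq ι] (hgen : Subgroup.closure (Set.range gen) = ⊤)
    (d : ι → ℕ) (hd : ∀ i, gen i ^ d i ∈ commutator G) :
    ∃ r : R G, aug G r = ∏ i, (d i : ℤ) ∧
      ∀ (B : Type u) [AddCommGroup B] (φ : W G B) (x : G), ((rhoHat G B r) φ).1 x = 0 := by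
  have key : ∀ k : ι, ∃ c : ι → R G, (∀ i, aug G (c i) = (Pi.single k (d k : ℤ) : ι → ℤ) i) ∧
      ∀ (B : Type u) [AddCommGroup B] (φ : W G B),
        ∑ i, ((rhoHat G B (c i)) φ).1 (gen i) = 0 := by
    intro k
    obtain ⟨a, ha, hax⟩ := rep_pow gen k (d k)
    obtain ⟨b, hb, hbx⟩ := rep_commutator gen hgen (hd k)
    refine ⟨fun i => a i - b i, fun i => by simp [ha, hb], fun B _ φ => ?_⟩
    simp only [map_sub, LinearMap.sub_apply, AddSubgroupClass.coe_sub, Pi.sub_apply,
      Finset.sum_sub_distrib]
    rw [← hax B φ, ← hbx B φ, sub_self]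
  choose c hc hcx using key
  let M : Matrix ι ι (R G) := Matrix.of fun i k => c k i
  refine ⟨M.det, ?_, ?_⟩
  · rw [show aug G M.det = (aug G).toRingHom M.det from rfl, RingHom.map_det]
    have : (aug G).toRingHom.mapMatrix M = Matrix.diagonal (fun i => (d i : ℤ)) := by
      ext i k
      show aug G (c k i) = _
      rw [hc k i, Matrix.diagonal_apply]
      by_cases h : i = k
      · subst h; simp
      · simp [h]
    rw [this, Matrix.det_diagonal]
  · intro B _ φ x
    have hj : ∀ (φ : W G B) (j : ι), ((rhoHat G B M.det) φ).1 (gen j) = 0 := by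
      intro φ j
      have h0 : ∀ i, (∑ k, c k i * M.adjugate k j) = if i = j then M.det else 0 := by
        intro i
        have := congrFun (congrFun (Matrix.mul_adjugate M) i) j
        rw [Matrix.mul_apply, Matrix.smul_apply, Matrix.one_apply] at this
        by_cases h : i = j
        · subst h; simpa [M] using this
        · simpa [M, h] using this
      have h1 : ∑ k, ∑ i, ((rhoHat G B (c k i * M.adjugate k j)) φ).1 (gen i) = 0 := by
        refine Finset.sum_eq_zero fun k _ => ?_
        simp only [map_mul, Module.End.mul_apply]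
        exact hcx k B _
      rw [Finset.sum_comm] at h1
      have h2 : ∀ i, ∑ k, ((rhoHat G B (c k i * M.adjugate k j)) φ).1 (gen i) =
          ((rhoHat G B (if i = j then M.det else 0)) φ).1 (gen i) := by
        intro i
        rw [← h0 i, map_sum, LinearMap.sum_apply, AddSubmonoidClass.coe_finsetSum,
          Finset.sum_apply]
      simp only [h2] at h1
      rw [Finset.sum_eq_single j (fun b _ hb => by simp [hb]) (by simp)] at h1
      simpa using h1
    obtain ⟨e, c', hc', hx⟩ := rep_exists gen hgen x
    rw [hx B]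
    refine Finset.sum_eq_zero fun i _ => ?_
    have e1 : rhoHat G B (c' i) ((rhoHat G B M.det) φ) =
        rhoHat G B M.det (rhoHat G B (c' i) φ) := by
      rw [← Module.End.mul_apply, ← Module.End.mul_apply, ← map_mul, ← map_mul, mul_comm]
    rw [e1]; exact hj _ i

end Rep

theorem exists_gens (G : Type u) [Group G] [Finite G] :
    ∃ (ι : Type) (_ : Fintype ι) (_ : DecidableEq ι) (gen : ι → G) (d : ι → ℕ),
      Subgroup.closure (Set.range gen) = ⊤ ∧ (∀ i, gen i ^ d i ∈ commutator G) ∧
      ∏ i, d i = Nat.card (Abelianization G) := by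
  classical
  obtain ⟨κ, _, n, hn, ⟨ψ⟩⟩ :=
    CommGroup.equiv_prod_multiplicative_zmod_of_finite (Abelianization G)
  obtain ⟨m, ⟨eH⟩⟩ := Finite.exists_equiv_fin ↥(commutator G)
  choose g hg using fun i : κ => QuotientGroup.mk_surjective (s := commutator G)
    (ψ.symm (Pi.mulSingle i (Multiplicative.ofAdd (1 : ZMod (n i)))))
  refine ⟨κ ⊕ Fin m, inferInstance, inferInstance,
    Sum.elim g (fun j => (eH.symm j : G)), Sum.elim n (fun _ => 1), ?_, ?_, ?_⟩
  · rw [eq_top_iff]
    intro x _
    set S := Subgroup.closure (Set.range (Sum.elim g (fun j => (eH.symm j : G)))) with hS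
    have hHS : commutator G ≤ S := fun h hh =>
      Subgroup.subset_closure ⟨Sum.inr (eH ⟨h, hh⟩), by simp⟩
    have : ψ (Abelianization.of x) ∈ (S.map Abelianization.of).map ψ.toMonoidHom := by
      apply Subgroup.pi_mem_of_mulSingle_mem
      intro i
      obtain ⟨z, hz⟩ : ∃ z : ℤ, (z : ZMod (n i)) = (ψ (Abelianization.of x) i).toAdd :=
        ⟨_, ZMod.intCast_zmod_cast _⟩
      have h1 : (Pi.mulSingle i (Multiplicative.ofAdd (1 : ZMod (n i))) :
          (i : κ) → Multiplicative (ZMod (n i))) ∈
          (S.map Abelianization.of).map ψ.toMonoidHom := by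
        refine ⟨Abelianization.of (g i), ⟨g i, Subgroup.subset_closure ⟨Sum.inl i, rfl⟩, rfl⟩, ?_⟩
        show ψ (Abelianization.of (g i)) = _
        have : Abelianization.of (g i) =
            ψ.symm (Pi.mulSingle i (Multiplicative.ofAdd (1 : ZMod (n i)))) := hg i
        rw [this, MulEquiv.apply_symm_apply]
      have h2 := Subgroup.zpow_mem _ h1 z
      rw [← Pi.mulSingle_zpow] at h2
      convert h2 using 2
      rw [← ofAdd_zsmul, zsmul_one, hz, ofAdd_toAdd]
    obtain ⟨y, ⟨s, hs, rfl⟩, hy⟩ := this
    have hy' : Abelianization.of s = Abelianization.of x := ψ.injective hy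
    have hker : s⁻¹ * x ∈ commutator G := QuotientGroup.eq.1 hy'
    have := S.mul_mem hs (hHS hker)
    simpa using this
  · rintro (i | j)
    · show g i ^ n i ∈ commutator G
      have hg' : Abelianization.of (g i) =
          ψ.symm (Pi.mulSingle i (Multiplicative.ofAdd (1 : ZMod (n i)))) := hg i
      refine (QuotientGroup.eq_one_iff _).1 ?_
      show Abelianization.of (g i ^ n i) = 1
      rw [map_pow, hg', ← map_pow, ← Pi.mulSingle_pow,
        ← ofAdd_nsmul, nsmul_one, ZMod.natCast_self, ofAdd_zero, Pi.mulSingle_one, map_one]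
    · simpa using (eH.symm j).2
  · rw [Fintype.prod_sum_type]
    simp only [Sum.elim_inl, Sum.elim_inr, Finset.prod_const_one, mul_one]
    rw [Nat.card_congr ψ.toEquiv, Nat.card_pi]
    exact Finset.prod_congr rfl fun i _ => (Nat.card_zmod (n i)).symm

theorem sum_T_eq_zero [Finite G] [Fintype (Abelianization G)] (B : Type u) [AddCommGroup B]
    (φ : W G B) (x : G) :
    (∑ q : Abelianization G, rho G B q φ).1 x = 0 := by
  classical
  obtain ⟨ι, _, _, gen, d, hgen, hd, hprod⟩ := exists_gens G
  obtain ⟨r, hr, hann⟩ := exists_annihilator gen hgen d hd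
  -- the universal derivation into the group ring
  let δ : W G (R G) := ⟨fun y => MonoidAlgebra.single (Abelianization.of y) 1 - 1, by
    intro g h hh
    have : Abelianization.of h = 1 := (QuotientGroup.eq_one_iff h).2 hh
    simp only [map_mul, this, mul_one, MonoidAlgebra.one_def, sub_self, add_zero]⟩
  have hδ : ∀ s : R G, ∀ y : G, ((rhoHat G (R G) s) δ).1 y = s * δ.1 y := by
    intro s y
    induction s using MonoidAlgebra.induction_on with
    | of q =>
      obtain ⟨t, rfl⟩ : ∃ t, Abelianization.of t = q := QuotientGroup.mk_surjective q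
      rw [MonoidAlgebra.of_apply, rhoHat_single, one_smul]
      show (T (B := R G) t δ).1 y = _
      rw [T_apply]
      show MonoidAlgebra.single (Abelianization.of (y * t)) 1 - 1 -
        (MonoidAlgebra.single (Abelianization.of t) 1 - 1) =
        MonoidAlgebra.single (Abelianization.of t) (1 : ℤ) *
          (MonoidAlgebra.single (Abelianization.of y) 1 - 1)
      rw [mul_sub, mul_one, MonoidAlgebra.single_mul_single, map_mul, mul_one,
        mul_comm (Abelianization.of t)]
      abel
    | add a b ha hb =>
      simp only [map_add, LinearMap.add_apply, Submodule.coe_add, Pi.add_apply, ha, hb, add_mul]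
    | smul k a ha =>
      simp only [map_smul, LinearMap.smul_apply, SetLike.val_smul, Pi.smul_apply, ha,
        smul_mul_assoc]
  have hconst : ∀ q : Abelianization G, r.coeff q = r.coeff 1 := by
    intro q
    obtain ⟨t, rfl⟩ : ∃ t, Abelianization.of t = q := QuotientGroup.mk_surjective q
    have h := hann (R G) δ t
    rw [hδ] at h
    have h' : r * MonoidAlgebra.single (Abelianization.of t) 1 = r := by
      have : r * (MonoidAlgebra.single (Abelianization.of t) 1 - 1) = 0 := h
      rw [mul_sub, mul_one, sub_eq_zero] at this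
      exact this
    have h'' := congrArg (fun z : R G => z.coeff (Abelianization.of t)) h'
    simp only [MonoidAlgebra.coeff_mul_single_apply, mul_inv_cancel, mul_one] at h''
    exact h''.symm
  have hrN : r = ∑ q : Abelianization G, MonoidAlgebra.single q (r.coeff 1) := by
    apply MonoidAlgebra.ext
    apply Finsupp.ext; intro q
    rw [MonoidAlgebra.coeff_sum, Finsupp.finsetSum_apply]
    simp [Finsupp.single_apply, hconst q]
  have hc : r.coeff 1 = 1 := by
    have h1 := hr
    rw [hrN, map_sum] at h1
    simp only [aug_single, Finset.sum_const, Finset.card_univ, nsmul_eq_mul,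
      ← Nat.cast_prod, hprod, Nat.card_eq_fintype_card] at h1
    have hne : (Fintype.card (Abelianization G) : ℤ) ≠ 0 := by
      exact_mod_cast Fintype.card_ne_zero
    exact mul_left_cancel₀ hne (h1.trans (mul_one _).symm)
  have := hann B φ x
  rw [hrN, hc, map_sum] at this
  simpa [rhoHat_single, LinearMap.sum_apply] using this

open Subgroup in
theorem transfer_eq_one [Finite G] :
    MonoidHom.transfer (Abelianization.of : ↥(commutator G) →* Abelianization ↥(commutator G)) =
      (1 : G →* Abelianization ↥(commutator G)) := by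
  classical
  letI : Fintype (G ⧸ commutator G) := (commutator G).fintypeQuotientOfFiniteIndex
  let τ : G ⧸ commutator G → G := Quotient.out
  have hτ : ∀ q, (τ q : G ⧸ commutator G) = q := fun q => QuotientGroup.out_eq' q
  have hmem : ∀ y : G, (τ (y : G ⧸ commutator G))⁻¹ * y ∈ commutator G := fun y =>
    QuotientGroup.eq.1 (hτ _)
  let f : G → Additive (Abelianization ↥(commutator G)) := fun y =>
    Additive.ofMul (Abelianization.of ⟨_, hmem y⟩)
  have hf : ∀ y h (hh : h ∈ commutator G), f (y * h) =
      f y + Additive.ofMul (Abelianization.of ⟨h, hh⟩) := by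
    intro y h hh
    have hy : ((y * h : G) : G ⧸ commutator G) = (y : G ⧸ commutator G) :=
      QuotientGroup.mk_mul_of_mem y hh
    show Additive.ofMul _ = Additive.ofMul _ + Additive.ofMul _
    rw [← ofMul_mul, ← map_mul]
    congr 2
    apply Subtype.ext
    show (τ ((y * h : G) : G ⧸ commutator G))⁻¹ * (y * h) = (τ _)⁻¹ * y * h
    rw [hy, mul_assoc]
  let φ : W G (Additive (Abelianization ↥(commutator G))) := ⟨fun y => f y - f 1, by
    intro y h hh
    have e1 := hf y h hh
    have e2 := hf 1 h hh
    rw [one_mul] at e2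
    show f (y * h) - f 1 = (f y - f 1) + (f h - f 1)
    rw [e1, e2]; abel⟩
  refine MonoidHom.ext fun g => ?_
  rw [MonoidHom.one_apply]
  let Tr : (commutator G).LeftTransversal := ⟨Set.range τ, isComplement_range_left hτ⟩
  rw [MonoidHom.transfer_def _ Tr g]
  letI : Fintype (Abelianization G) := (commutator G).fintypeQuotientOfFiniteIndex
  have h0 := sum_T_eq_zero (Additive (Abelianization ↥(commutator G))) φ g
  simp only [AddSubmonoidClass.coe_finsetSum, Finset.sum_apply] at h0
  apply Additive.ofMul.injective
  rw [ofMul_one, ← h0]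
  unfold Subgroup.leftTransversals.diff
  rw [ofMul_prod]
  symm
  refine Fintype.sum_equiv (MulAction.toPerm g : Equiv.Perm (G ⧸ commutator G)) _ _ fun q => ?_
  obtain ⟨q', rfl⟩ : ∃ q' : G ⧸ commutator G, q' = q := ⟨q, rfl⟩
  have hq : rho G (Additive (Abelianization ↥(commutator G))) q' φ = T (B := Additive (Abelianization ↥(commutator G))) (τ q') φ := by
    conv_lhs => rw [← hτ q']
    rfl
  rw [hq, T_apply]
  have hone : (τ q')⁻¹ * τ q' ∈ commutator G := by simp
  have ez : f (τ q') = 0 := by
    have : (⟨_, hmem (τ q')⟩ : ↥(commutator G)) = 1 := by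
      apply Subtype.ext
      show (τ ((τ q' : G) : G ⧸ commutator G))⁻¹ * τ q' = 1
      rw [hτ]; simp
    show Additive.ofMul (Abelianization.of _) = 0
    rw [this, map_one, ofMul_one]
  show (f (g * τ q') - f 1) - (f (τ q') - f 1) = _
  rw [ez]
  rw [show (f (g * τ q') - f 1) - (0 - f 1) = f (g * τ q') by abel]
  show Additive.ofMul _ = Additive.ofMul _
  congr 2
  apply Subtype.ext
  have e3 : MulAction.toPerm g q' = ((g * τ q' : G) : G ⧸ commutator G) := by
    show g • q' = _
    conv_lhs => rw [← hτ q']
    rfl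
  show _ = _ * _
  rw [e3, smul_apply_eq_smul_apply_inv_smul, IsComplement.leftQuotientEquiv_apply hτ,
    IsComplement.leftQuotientEquiv_apply hτ]
  show (τ ((g * τ q' : G) : G ⧸ commutator G))⁻¹ * (g * τ q') =
    (τ ((g * τ q' : G) : G ⧸ commutator G))⁻¹ *
      (g * τ (g⁻¹ • ((g * τ q' : G) : G ⧸ commutator G)))
  rw [← e3]
  have e4 : g⁻¹ • (MulAction.toPerm g q') = q' := inv_smul_smul g q'
  rw [e4]

end Cfsg.Agent.PIT
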